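-- Certificate checks for J1A.
import Cfsg.Agent.Lib.Compute.TC.J1A.Data
set_option autoImplicit false
set_option maxRecDepth 1000000

open Cfsg.Agent.Lib.Compute.ToddCoxeterCore Cfsg.Agent.Lib.Compute.ToddCoxeterPresented Cfsg.Agent.Lib.Compute.TCFast

namespace Cfsg.Agent.Lib.Compute.TC.J1A

theorem orbI : allFrom (oc.chkI cfg hwL) (nat_lit 266) (nat_lit 0) = true := by decide +kernel
theorem orbT : allFrom (oc.chkT cfg hwL) (nat_lit 266) (nat_lit 0) = true := by decide +kernel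
theorem orbC0 : cntAcc (fun j => Nat.beq (oc.oid j) (nat_lit 0)) (nat_lit 266) (nat_lit 0) (nat_lit 0) = 1 := by decide +kernel
theorem orbC1 : cntAcc (fun j => Nat.beq (oc.oid j) (nat_lit 1)) (nat_lit 266) (nat_lit 0) (nat_lit 0) = 132 := by decide +kernel
theorem orbC2 : cntAcc (fun j => Nat.beq (oc.oid j) (nat_lit 2)) (nat_lit 266) (nat_lit 0) (nat_lit 0) = 110 := by decide +kernel
theorem orbC3 : cntAcc (fun j => Nat.beq (oc.oid j) (nat_lit 3)) (nat_lit 266) (nat_lit 0) (nat_lit 0) = 12 := by decide +kernel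
theorem orbC4 : cntAcc (fun j => Nat.beq (oc.oid j) (nat_lit 4)) (nat_lit 266) (nat_lit 0) (nat_lit 0) = 11 := by decide +kernel

end Cfsg.Agent.Lib.Compute.TC.J1A
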